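import Cfsg.Agent.H733.Tor.Proj

/-!
# S3235: the adjoint action of a linear group modulo scalars (helper733)

* `pr_adj` : `L ≤ GL_N(F)`, `Z` the subgroup of scalars of `L`: `L / Z` has a faithful representation of degree `N ^ 2`.
* `Reg.false_of_torus'` : an element of arbitrary order larger than `4 N + 2`.
-/

set_option autoImplicit false

namespace Cfsg.Agent.H733.Tor

open Subgroup Matrix Module Cfsg
open Cfsg.Agent.H103.Tor
open Cfsg.Agent.H912.Bd (PR Bd)

universe v w

section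

variable {F : Type w} [Field F] {ι : Type*} [Fintype ι] [DecidableEq ι] {L : Type w} [Group L]

/-- conjugation on matrices -/
def adjHom (f : L →* Matrix ι ι F) : L →* Module.End F (Matrix ι ι F) where
  toFun x :=
    { toFun := fun X => f x * X * f x⁻¹
      map_add' := fun X Y => by rw [mul_add, add_mul]
      map_smul' := fun c X => by rw [RingHom.id_apply, mul_smul_comm, smul_mul_assoc] }
  map_one' := by
    ext1 X
    show f 1 * X * f 1⁻¹ = X
    rw [inv_one, map_one, one_mul, mul_one]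
  map_mul' x y := by
    ext1 X
    show f (x * y) * X * f (x * y)⁻¹ = f x * (f y * X * f y⁻¹) * f x⁻¹
    rw [_root_.mul_inv_rev, map_mul, map_mul]
    simp only [mul_assoc]

theorem adjHom_apply (f : L →* Matrix ι ι F) (x : L) (X : Matrix ι ι F) : adjHom f x X = f x * X * f x⁻¹ := rfl

theorem adjHom_eq_one_iff (f : L →* Matrix ι ι F) (x : L) : adjHom f x = 1 ↔ ∀ X, f x * X = X * f x := by
  have h1 : f x⁻¹ * f x = 1 := by rw [← map_mul, inv_mul_cancel, map_one]
  have h2 : f x * f x⁻¹ = 1 := by rw [← map_mul, mul_inv_cancel, map_one]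
  constructor
  · intro h X
    have h3 : f x * X * f x⁻¹ = X := LinearMap.congr_fun h X
    calc f x * X = f x * X * (f x⁻¹ * f x) := by rw [h1, mul_one]
      _ = f x * X * f x⁻¹ * f x := by rw [mul_assoc (f x * X)]
      _ = X * f x := by rw [h3]
  · intro h
    refine LinearMap.ext fun X => ?_
    show f x * X * f x⁻¹ = X
    rw [h, mul_assoc, h2, mul_one]

/-- **The adjoint action.** -/
theorem pr_adj {N : ℕ} (hN : Fintype.card ι = N) (f : L →* Matrix ι ι F) {Z : Subgroup L} [Z.Normal]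
    (hZ : ∀ x, x ∈ Z ↔ ∀ X : Matrix ι ι F, f x * X = X * f x) {K : Type v} [Group K] (e : K ≃* L ⧸ Z) (p : ℕ) :
    PR F (N ^ 2) p K := by
  let g : L ⧸ Z →* Module.End F (Matrix ι ι F) :=
    QuotientGroup.lift Z (adjHom f) fun x hx => (adjHom_eq_one_iff f x).2 ((hZ x).1 hx)
  have hg : ∀ y, g y = 1 → y = 1 := by
    intro y hy
    induction y using QuotientGroup.induction_on with
    | H x => exact (QuotientGroup.eq_one_iff x).2 ((hZ x).2 ((adjHom_eq_one_iff f x).1 hy))
  have hinj : ∀ y, e.symm.toMonoidHom y = 1 → y = 1 := fun y hy => (MulEquiv.map_eq_one_iff e.symm).1 hy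
  refine pr_of_hom (ι := ι × ι) (by rw [Fintype.card_prod, hN, sq]) (L := L ⧸ Z) (π := e.symm.toMonoidHom)
    e.symm.surjective ?_ ?_ ((LinearMap.toMatrixAlgEquiv (Matrix.stdBasis F ι ι)).toAlgHom.toRingHom.toMonoidHom.comp g)
    ?_
  · intro x hx y
    rw [hinj x hx, one_mul, mul_one]
  · have h1 : e.symm.toMonoidHom.ker = ⊥ := by
      rw [eq_bot_iff]
      intro x hx
      exact hinj x hx
    rw [h1, Subgroup.card_bot]
    exact Nat.coprime_one_left p
  · intro x hx
    have h1 : g x = 1 := by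
      apply (LinearMap.toMatrixAlgEquiv (Matrix.stdBasis F ι ι)).injective
      rw [map_one]
      exact hx
    rw [hg x h1, map_one]

end

variable {p r : ℕ} {K : Type*} [Group K] [Finite K]

theorem Reg.orderOf_le' {N : ℕ} (h : Reg p r N K) (hp : p.Prime) {z : K} (hz : ¬ r ∣ orderOf z) :
    orderOf z ≤ 4 * N + 2 := by
  have h0 := h.le
  rcases h.orderOf_cases hz with h1 | ⟨m, hm, h1, h2 | h2⟩
  · have h3 := Nat.le_of_dvd (by have := hp.pos; omega) h1
    omega
  · have h3 : 2 ≤ p ^ m := hp.two_le.trans (Nat.le_self_pow (by omega) p)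
    have h4 := Nat.le_of_dvd (by omega) h2
    omega
  · have h4 := Nat.le_of_dvd (by omega) h2
    omega

/-- a torus element, of arbitrary order: `m ∣ |x| g`, `g ≤ d` -/
theorem Reg.false_of_torus' {N : ℕ} (h : Reg p r N K) (hp : p.Prime) {K' : Type*} [Group K']
    (e : K ≃* K') {d g m : ℕ} (hgd : g ≤ d) (hg : 0 < g) (hx : ∃ x : K', m ∣ orderOf x * g) (hr : ¬ r ∣ m)
    (hm : d * (4 * N + 2) < m) : False := by
  have hm0 : 0 < m := by omega
  obtain ⟨x, hx⟩ := hx
  have h1 : Nat.Coprime (m / Nat.gcd m g) (g / Nat.gcd m g) :=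
    Nat.coprime_div_gcd_div_gcd (Nat.gcd_pos_of_pos_left _ hm0)
  have h3 : m / Nat.gcd m g ∣ orderOf x := by
    refine h1.dvd_of_dvd_mul_right ?_
    rw [← Nat.mul_div_assoc _ (Nat.gcd_dvd_right m g)]
    exact Nat.div_dvd_div (Nat.gcd_dvd_left m g) hx
  have h4 : orderOf x = orderOf (e.symm x) := (MulEquiv.orderOf_eq e.symm x).symm
  rw [h4] at h3
  obtain ⟨z, hz⟩ := exists_order_of_dvd h3
  have h5 : m / Nat.gcd m g ∣ m := Nat.div_dvd_of_dvd (Nat.gcd_dvd_left m g)
  have h8 := h.orderOf_le' hp (z := z) (by rw [hz]; exact fun h6 => hr (h6.trans h5))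
  rw [hz] at h8
  have h6 : Nat.gcd m g ≤ d := (Nat.le_of_dvd hg (Nat.gcd_dvd_right m g)).trans hgd
  have h7 : m / Nat.gcd m g * Nat.gcd m g = m := Nat.div_mul_cancel (Nat.gcd_dvd_left m g)
  have h9 : m ≤ (4 * N + 2) * d := by
    rw [← h7]
    exact Nat.mul_le_mul h8 h6
  rw [mul_comm] at h9
  omega

/-- `Reg` from the adjoint action -/
theorem reg_adj {p r : ℕ} (hp : p.Prime) (hp5 : 5 ≤ p) (hr : r.Prime) (hrp : r ≠ p) {K : Type v} [Group K] [Finite K]
    [IsSimpleGroup K] (hK : LieHyp r K) {A : Subgroup K} (h : Pr p A) {F : Type w} [Field F] [CharP F r]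
    {ι : Type*} [Fintype ι] [DecidableEq ι] {N : ℕ} (hN : Fintype.card ι = N)
    {L : Type w} [Group L] (f : L →* Matrix ι ι F) {Z : Subgroup L} [Z.Normal]
    (hZ : ∀ x, x ∈ Z ↔ ∀ X : Matrix ι ι F, f x * X = X * f x) (e : K ≃* L ⧸ Z) : Reg p r (N ^ 2) K :=
  reg_of_pr hp hp5 hr hrp hK h (pr_adj hN f hZ e p)

end Cfsg.Agent.H733.Tor
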