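import Cfsg.Agent.H451.Tor.Rows
import Cfsg.Agent.S0243
import Cfsg.Agent.S0495

/-!
# S3235: `PSL₃(2) ≅ PSL₂(7)` (helper733)
-/

set_option autoImplicit false

namespace Cfsg.Agent.H733.Tor

open Cfsg Cfsg.Agent.H103.Tor

theorem target_psl32 {p : ℕ} (hp : p.Prime) (hp5 : 5 ≤ p) {K : Type*} [Group K] [Finite K] [IsSimpleGroup K]
    {F : Type*} [Field F] [Fintype F] (h2 : Fintype.card F = 2)
    (e : K ≃* Matrix.ProjectiveSpecialLinearGroup (Fin 3) F) {A : Subgroup K} (hA : Pr p A) : Target p K := by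
  have h1 := Cfsg.Agent.S0243.result h2 3 (by norm_num)
  rw [← Nat.card_congr e.toEquiv] at h1
  have h3 : Nat.card K = 168 := by
    simp [Fin.prod_univ_three] at h1
    omega
  have h4 : p ∣ 168 := by
    rw [← h3, ← hA.card]
    exact Subgroup.card_subgroup_dvd_card A
  have hp7 : p = 7 := by
    have h5 : p ∣ 2 ^ 3 * 3 * 7 := h4
    rcases hp.dvd_mul.1 h5 with h6 | h6
    · rcases hp.dvd_mul.1 h6 with h7 | h7
      · have := Nat.le_of_dvd (by norm_num) (hp.dvd_of_dvd_pow h7)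
        omega
      · have := Nat.le_of_dvd (by norm_num) h7
        omega
    · exact (Nat.prime_dvd_prime_iff_eq hp (by norm_num)).1 h6
  subst hp7
  have : Fact (Nat.Prime 7) := ⟨hp⟩
  exact Cfsg.Agent.H451.Tor.target_psl2
    ⟨ZMod 7, inferInstance, inferInstance, inferInstance, Cfsg.Agent.S0495.result h3 (ZMod.card 7)⟩

end Cfsg.Agent.H733.Tor
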