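import Cfsg.Agent.H733.Tor.Chk
import Cfsg.Agent.H175.BdSp
import Cfsg.Agent.S0244

/-!
# S3235: projective representations (helper733)

* `reg_of_pr` : `Reg p r N K` from a projective representation of degree `N` in characteristic `r` with kernel of
  order prime to `p` (`H912.Bd.PR`);
* `pr_of_hom` : a group `L` of matrices with a surjection onto `K` whose kernel is central, consists of elements `x` and
  has order prime to `p`;
-/

set_option autoImplicit false

namespace Cfsg.Agent.H733.Tor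

open Subgroup Matrix Module Cfsg
open Cfsg.Agent.H103.Tor
open Cfsg.Agent.H333.SLTwoLine (Ker1 u l d)
open Cfsg.Agent.H912.Bd (PR Bd)

universe v w

section

variable {K : Type*} [Field K]

/-- `Sp₂ → SL₂` -/
def spTwo (K : Type*) [Field K] : Matrix.symplecticGroup (Fin 1) K →* SpecialLinearGroup (Fin 2) K where
  toFun x := ⟨Matrix.reindexAlgEquiv K K finSumFinEquiv x.1, by
    rw [Matrix.det_reindexAlgEquiv]
    exact (Cfsg.Agent.S0244.result x.1).1 x.2⟩
  map_one' := Subtype.ext (map_one _)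
  map_mul' x y := Subtype.ext (map_mul (Matrix.reindexAlgEquiv K K finSumFinEquiv) x.1 y.1)

theorem spTwo_injective : Function.Injective (spTwo K) := by
  intro x y h
  have h1 := congrArg Subtype.val h
  exact Subtype.ext ((Matrix.reindexAlgEquiv K K finSumFinEquiv).injective h1)

end

section Deg

variable {G : Type v} [Group G] {p : ℕ} (hp : p.Prime) (hp5 : 5 ≤ p)

include hp hp5

/-- the degree bound -/
theorem card_le_of_pr {K : Type*} [Field K] [Fintype K] [CharP K p] {φ : SpecialLinearGroup (Fin 2) K →* G}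
    (hφ : Ker1 φ) {F : Type w} [Field F] (hF : (p : F) ≠ 0) {N : ℕ} (h : PR F N p G) :
    Fintype.card K ≤ 2 * N + 1 := by
  have h1 := Cfsg.Agent.H175.BdSp.bd_of_sp (F := F) hp (q := Fintype.card K) (K := K) rfl (m := 1) le_rfl hF
    (φ.comp (spTwo K)) (by
      intro x hx
      rw [mem_center_iff]
      intro y
      apply spTwo_injective
      rw [map_mul, map_mul]
      rcases hφ _ hx with h2 | h2
      · rw [h2, mul_one, one_mul]
      · rw [h2, mul_neg_one, neg_one_mul]) N h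
  rw [pow_one] at h1
  have h2 : Odd (Fintype.card K) := by
    have hpf := Fact.mk hp
    obtain ⟨n, -, hn⟩ := FiniteField.card K p
    rw [hn]
    exact (hp.odd_of_ne_two (by omega)).pow
  obtain ⟨c, hc⟩ := h2
  omega

/-- **Elements of `A ⊔ B`.** -/
theorem Pair.cases_pr {A B : Subgroup G} (h : Pair p A B) {F : Type w} [Field F] (hF : (p : F) ≠ 0) {N : ℕ}
    (hpr : PR F N p G) : ∃ m : ℕ, 1 ≤ m ∧ p ^ m ≤ 2 * N + 1 ∧
      ∀ z ∈ A ⊔ B, z ^ (2 * p) = 1 ∨ z ^ (p ^ m - 1) = 1 ∨ z ^ (p ^ m + 1) = 1 := by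
  obtain ⟨K, _, _, _, m, φ, x, y, hm, hK, hφ, hX, hx, hy, hAx, hBy⟩ := h
  refine ⟨m, hm, ?_, ?_⟩
  · rw [← hK]
    exact card_le_of_pr hp hp5 hφ hF hpr
  · intro z hz
    rw [← hX] at hz
    obtain ⟨Z, rfl⟩ := hz
    rcases sl_order hp (by omega) Z with h1 | h1 | h1
    · left; rw [← map_pow, h1, map_one]
    · right; left; rw [← hK, ← map_pow, h1, map_one]
    · right; right; rw [← hK, ← map_pow, h1, map_one]

/-- **Products of two elements of conjugates of `A`.** -/
theorem Pr.cases_pr {A : Subgroup G} (h : Pr p A) {F : Type w} [Field F] (hF : (p : F) ≠ 0) {N : ℕ}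
    (hpr : PR F N p G) {g k a b : G} (ha : a ∈ A) (hb : b ∈ A) {z : G} (hz : z = g * a * g⁻¹ * (k * b * k⁻¹)) :
    z ^ (2 * p) = 1 ∨ ∃ m : ℕ, 1 ≤ m ∧ p ^ m ≤ 2 * N + 1 ∧ (z ^ (p ^ m - 1) = 1 ∨ z ^ (p ^ m + 1) = 1) := by
  have h1 : g * a * g⁻¹ ∈ cj g A := conj_mem_cj ha
  have h2 : k * b * k⁻¹ ∈ cj k A := conj_mem_cj hb
  by_cases hc : Cm (cj g A) (cj k A)
  · left
    have h3 : Commute (g * a * g⁻¹) (k * b * k⁻¹) := hc _ h1 _ h2
    have h4 : ∀ c ∈ A, c ^ p = 1 := by
      intro c hcA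
      have := pow_card_eq_one' (x := (⟨c, hcA⟩ : A))
      rw [h.card] at this
      exact congrArg Subtype.val this
    have h5 : z ^ p = 1 := by
      rw [hz, h3.mul_pow, conj_pow, conj_pow, h4 a ha, h4 b hb]
      group
    rw [mul_comm, pow_mul, h5, one_pow]
  · obtain ⟨m, hm, h3, h4⟩ := Pair.cases_pr hp hp5 (exists_pair hp hp5 (h.card_cj g) (h.card_cj k)
      ((h.pair' g k).resolve_left hc) hc) hF hpr
    rcases h4 z (by rw [hz]; exact mul_mem (mem_sup_left h1) (mem_sup_right h2)) with h5 | h5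
    · exact Or.inl h5
    · exact Or.inr ⟨m, hm, h3, h5⟩

end Deg

/-- **`Reg` from a projective representation.** -/
theorem reg_of_pr {p r : ℕ} (hp : p.Prime) (hp5 : 5 ≤ p) (hr : r.Prime) (hrp : r ≠ p) {K : Type v} [Group K] [Finite K]
    [IsSimpleGroup K] (hK : LieHyp r K) {A : Subgroup K} (h : Pr p A) {F : Type w} [Field F] [CharP F r]
    {N : ℕ} (hpr : PR F N p K) : Reg p r N K := by
  have : Fact r.Prime := ⟨hr⟩
  have hpf : Fact p.Prime := ⟨hp⟩
  have hF : (p : F) ≠ 0 := by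
    intro h0
    have h1 := (CharP.cast_eq_zero_iff F r p).1 h0
    exact hrp ((Nat.prime_dvd_prime_iff_eq hr hp).1 h1)
  obtain ⟨a, ha, hao, hAa⟩ := Cfsg.Agent.H333.SLTwoLine.exists_gen hp A h.card
  have hx := not_dvd_centralizer hp hp5 hrp hK.loc h ha hAa
  refine ⟨?_, ?_, fun z hz => ?_⟩
  · obtain ⟨g, hg⟩ := h.exists_noncomm_simple hp hp5 hK.nonab
    obtain ⟨m, hm, h1, -⟩ := Pair.cases_pr hp hp5 (h.exists_pair hp hp5 hg) hF hpr
    exact (Nat.le_self_pow (by omega) p).trans h1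
  · rw [← hao]; exact orderOf_dvd_natCard a
  · by_cases hz1 : z = 1
    · left; rw [hz1, one_pow]
    · obtain ⟨g, k, hgk⟩ := hK.gow hx hz1 hz
      exact Pr.cases_pr hp hp5 h hF hpr ha ha hgk.symm

/-- a projective representation -/
theorem pr_of_hom {F : Type w} [Field F] {ι : Type*} [Fintype ι] [DecidableEq ι] {N : ℕ} (hN : Fintype.card ι = N)
    {L : Type w} [Group L] {K : Type v} [Group K] {π : L →* K} (hπ : Function.Surjective π)
    (hc : ∀ x, π x = 1 → ∀ y, x * y = y * x) {p : ℕ} (hcop : (Nat.card π.ker).Coprime p) (f : L →* Matrix ι ι F)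
    (hf : ∀ x, f x = 1 → π x = 1) : PR F N p K := by
  subst hN
  let e : ι ≃ Fin (Fintype.card ι) := Fintype.equivFin ι
  let g : L →* Matrix (Fin (Fintype.card ι)) (Fin (Fintype.card ι)) F :=
    (Matrix.reindexAlgEquiv F F e).toAlgHom.toRingHom.toMonoidHom.comp f
  refine ⟨L, inferInstance, π, MonoidHom.toHomUnits g, hπ, hc, hcop, ?_⟩
  intro x hx
  have h1 : g x = 1 := congrArg Units.val hx
  have h2 : f x = 1 := by
    apply (Matrix.reindexAlgEquiv F F e).injective
    rw [map_one]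
    exact h1
  exact hf x h2

/-- a linear group modulo a central subgroup of order prime to `p` -/
theorem pr_quot {F : Type w} [Field F] {ι : Type*} [Fintype ι] [DecidableEq ι] {N : ℕ} (hN : Fintype.card ι = N)
    {L : Type w} [Group L] {f : L →* Matrix ι ι F} (hf : Function.Injective f) {Z : Subgroup L} [Z.Normal]
    (hZ : Z ≤ center L) {K : Type v} [Group K] (e : K ≃* L ⧸ Z) {p : ℕ} (hcop : (Nat.card Z).Coprime p) :
    PR F N p K := by
  have hker : ∀ x, (e.symm.toMonoidHom.comp (QuotientGroup.mk' Z)) x = 1 ↔ x ∈ Z := by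
    intro x
    show e.symm (QuotientGroup.mk' Z x) = 1 ↔ _
    rw [MulEquiv.map_eq_one_iff]
    exact QuotientGroup.eq_one_iff x
  refine pr_of_hom hN (π := e.symm.toMonoidHom.comp (QuotientGroup.mk' Z)) ?_ ?_ ?_ f ?_
  · exact e.symm.surjective.comp (QuotientGroup.mk'_surjective Z)
  · intro x hx y
    exact ((mem_center_iff.1 (hZ ((hker x).1 hx))) y).symm
  · have : (e.symm.toMonoidHom.comp (QuotientGroup.mk' Z)).ker = Z := by
      ext x
      exact (MonoidHom.mem_ker).trans (hker x)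
    rw [this]
    exact hcop
  · intro x hx
    have : x = 1 := hf (by rw [hx, map_one])
    rw [this, map_one]

/-- a linear group modulo a central subgroup of order not divisible by `p` -/
theorem reg_quot {p r : ℕ} (hp : p.Prime) (hp5 : 5 ≤ p) (hr : r.Prime) (hrp : r ≠ p) {K : Type v} [Group K] [Finite K]
    [IsSimpleGroup K] (hK : LieHyp r K) {A : Subgroup K} (h : Pr p A) {F : Type w} [Field F] [CharP F r]
    {ι : Type*} [Fintype ι] [DecidableEq ι] {N : ℕ} (hN : Fintype.card ι = N)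
    {L : Type w} [Group L] {f : L →* Matrix ι ι F} (hf : Function.Injective f) {Z : Subgroup L} [Z.Normal]
    (hZ : Z ≤ center L) (e : K ≃* L ⧸ Z) (hZp : ¬ p ∣ Nat.card Z) : Reg p r N K :=
  reg_of_pr hp hp5 hr hrp hK h (pr_quot hN hf hZ e (((Nat.Prime.coprime_iff_not_dvd hp).2 hZp).symm))

end Cfsg.Agent.H733.Tor
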