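import Cfsg.Agent.H733.Tor.Adj
import Cfsg.Agent.LieExceptional.CyclicSylow
import Cfsg.Agent.H93.PslCharpoly
import Cfsg.Agent.S0243

/-!
# S3235: `PSL_n(q)`, `n ≥ 3`, in cross characteristic (helper733)
-/

set_option autoImplicit false

namespace Cfsg.Agent.H733.Tor

open Subgroup Matrix Module Cfsg Finset
open Cfsg.Agent.H103.Tor

/-! ### numbers -/

/-- `1 + q + ... + q ^ (n - 1)` -/
def gs (q n : ℕ) : ℕ := ∑ i ∈ range n, q ^ i

theorem gs_succ (q n : ℕ) : gs q (n + 1) = q * gs q n + 1 := geom_sum_succ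

theorem gs_three (q : ℕ) : gs q 3 = q ^ 2 + q + 1 := by
  simp [gs, Finset.sum_range_succ]; ring

theorem gs_mul (q n : ℕ) (hq : 1 ≤ q) : gs q n * (q - 1) = q ^ n - 1 := by
  obtain ⟨c, rfl⟩ : ∃ c, q = c + 1 := ⟨q - 1, by omega⟩
  induction n with
  | zero => simp [gs]
  | succ n ih =>
    rw [gs_succ, add_mul, mul_assoc, ih, one_mul, pow_succ]
    have : 1 ≤ (c + 1) ^ n := Nat.one_le_pow _ _ (by omega)
    rw [Nat.add_sub_cancel]
    have h2 : (c + 1) ^ n * (c + 1) = (c + 1) * ((c + 1) ^ n - 1) + (c + 1) := by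
      obtain ⟨d, hd⟩ : ∃ d, (c + 1) ^ n = d + 1 := ⟨(c + 1) ^ n - 1, by omega⟩
      rw [hd, Nat.add_sub_cancel]; ring
    omega

theorem gs_lt {q n : ℕ} (hq : 5 ≤ q) (hn : 4 ≤ n) : n * (4 * n + 2) < gs q n := by
  induction n, hn using Nat.le_induction with
  | base =>
    rw [gs_succ, gs_three]
    nlinarith
  | succ n hn ih =>
    rw [gs_succ]
    nlinarith

theorem gs_lt4 {n : ℕ} (hn : 4 ≤ n) : 3 * (4 * n + 2) < gs 4 n := by
  induction n, hn using Nat.le_induction with
  | base => decide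
  | succ n hn ih =>
    rw [gs_succ]
    omega

theorem gs_lt3 {n : ℕ} (hn : 4 ≤ n) : 2 * (4 * n + 2) < gs 3 n := by
  induction n, hn using Nat.le_induction with
  | base => decide
  | succ n hn ih =>
    rw [gs_succ]
    omega

theorem gs_lt2 {n : ℕ} (hn : 5 ≤ n) : 1 * (4 * n + 2) < gs 2 n := by
  induction n, hn using Nat.le_induction with
  | base => decide
  | succ n hn ih =>
    rw [gs_succ]
    omega

theorem gs_lt_sq {q n : ℕ} (hq : 6 ≤ q) (hn : 5 ≤ n) : n * (4 * n ^ 2 + 2) < gs q n := by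
  induction n, hn using Nat.le_induction with
  | base =>
    have h1 : gs q 5 = q * (q * gs q 3 + 1) + 1 := by rw [gs_succ, gs_succ]
    rw [h1, gs_three]
    nlinarith [Nat.mul_le_mul hq hq, Nat.mul_le_mul (Nat.mul_le_mul hq hq) (Nat.mul_le_mul hq hq)]
  | succ n hn ih =>
    rw [gs_succ]
    have h2 : (n + 1) * (4 * (n + 1) ^ 2 + 2) ≤ 6 * (n * (4 * n ^ 2 + 2)) := by nlinarith [Nat.mul_le_mul hn hn]
    have h3 : 6 * gs q n ≤ q * gs q n := Nat.mul_le_mul_right _ hq
    omega

/-! ### the Singer cycle -/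

section

variable {F : Type*} [Field F] [Fintype F] {n : ℕ}

theorem smul_pow_gcd {g : SpecialLinearGroup (Fin n) F} (hn : 1 ≤ n)
    (hg : g ∈ Subgroup.center (SpecialLinearGroup (Fin n) F)) : g ^ Nat.gcd n (Fintype.card F - 1) = 1 := by
  have h1 := pow_card_eq_one' (x := (⟨g, hg⟩ : Subgroup.center (SpecialLinearGroup (Fin n) F)))
  rw [Cfsg.Agent.H93.PslCharpoly.card_center n hn, Nat.card_eq_fintype_card] at h1
  exact congrArg Subtype.val h1

/-- **The Singer cycle of `PSL_n(q)`.** -/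
theorem exists_singer_psl (hn : 1 ≤ n) :
    ∃ x : Matrix.ProjectiveSpecialLinearGroup (Fin n) F, gs (Fintype.card F) n ∣
      orderOf x * Nat.gcd n (Fintype.card F - 1) := by
  have : NeZero n := ⟨by omega⟩
  have hq : 1 < Fintype.card F := Fintype.one_lt_card
  obtain ⟨K, _, _, hK, f, hf⟩ := Cfsg.Agent.LieExceptional.CyclicSylow.exists_singer F n
  obtain ⟨g, hg⟩ := IsCyclic.exists_generator (α := Kˣ)
  have ho : orderOf g = Fintype.card F ^ n - 1 := by
    rw [orderOf_eq_card_of_forall_mem_zpowers hg, Nat.card_units, hK, Nat.card_eq_fintype_card]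
  have hdet : (f (g ^ (Fintype.card F - 1)) : Matrix (Fin n) (Fin n) F).det = 1 := by
    have h1 : Matrix.GeneralLinearGroup.det (f (g ^ (Fintype.card F - 1))) = 1 := by
      rw [map_pow, map_pow]
      have := pow_card_eq_one' (x := Matrix.GeneralLinearGroup.det (f g))
      rwa [Nat.card_units, Nat.card_eq_fintype_card] at this
    have := congrArg Units.val h1
    simpa using this
  let A : SpecialLinearGroup (Fin n) F := ⟨(f (g ^ (Fintype.card F - 1)) : Matrix (Fin n) (Fin n) F), hdet⟩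
  have hA : SpecialLinearGroup.toGL A = f (g ^ (Fintype.card F - 1)) := Units.ext rfl
  refine ⟨QuotientGroup.mk A, ?_⟩
  have h1 : (A ^ orderOf (QuotientGroup.mk A : Matrix.ProjectiveSpecialLinearGroup (Fin n) F)) ∈
      Subgroup.center (SpecialLinearGroup (Fin n) F) := by
    rw [← QuotientGroup.eq_one_iff, QuotientGroup.mk_pow, pow_orderOf_eq_one]
  have h2 := smul_pow_gcd hn h1
  rw [← pow_mul] at h2
  have h3 : g ^ ((Fintype.card F - 1) * (orderOf (QuotientGroup.mk A : Matrix.ProjectiveSpecialLinearGroup (Fin n) F) *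
      Nat.gcd n (Fintype.card F - 1))) = 1 := by
    apply hf
    rw [pow_mul, map_pow, ← hA, ← map_pow, h2, map_one, map_one]
  have h4 := orderOf_dvd_of_pow_eq_one h3
  rw [ho, ← gs_mul _ _ hq.le, mul_comm] at h4
  exact Nat.dvd_of_mul_dvd_mul_left (by omega) h4

end

theorem gs_not_dvd {r q n : ℕ} (hr : r.Prime) (hrq : r ∣ q) (hn : 1 ≤ n) : ¬ r ∣ gs q n := by
  obtain ⟨k, rfl⟩ : ∃ k, n = k + 1 := ⟨n - 1, by omega⟩
  rw [gs_succ]
  intro h
  have h1 : r ∣ 1 := (Nat.dvd_add_right (hrq.mul_right _)).1 h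
  exact hr.one_lt.ne' (Nat.dvd_one.1 h1)

variable {p r : ℕ} {K : Type*} [Group K] [Finite K]

/-- the natural module -/
theorem no_psl_of_reg (hp : p.Prime) (hp5 : 5 ≤ p) (F : Type*) [Field F] [Fintype F] [CharP F r] {n : ℕ} (hn : 3 ≤ n)
    (hn2 : n = 3 → Fintype.card F ≠ 2) (e : K ≃* Matrix.ProjectiveSpecialLinearGroup (Fin n) F)
    (h : Reg p r n K) : False := by
  obtain ⟨hr, hrq⟩ : r.Prime ∧ r ∣ Fintype.card F := by
    obtain ⟨k, hr, hk⟩ := FiniteField.card F r
    exact ⟨hr, hk ▸ dvd_pow_self r k.pos.ne'⟩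
  have hq2 : 1 < Fintype.card F := Fintype.one_lt_card
  obtain ⟨x, hx⟩ := exists_singer_psl (F := F) (n := n) (by omega)
  have hg0 : 0 < Nat.gcd n (Fintype.card F - 1) := Nat.gcd_pos_of_pos_left _ (by omega)
  have hgn : Nat.gcd n (Fintype.card F - 1) ≤ n := Nat.gcd_le_left _ (by omega)
  have hgq : Nat.gcd n (Fintype.card F - 1) ≤ Fintype.card F - 1 := Nat.gcd_le_right _ (by omega)
  have hnd := gs_not_dvd hr hrq (n := n) (by omega)
  have key : ∀ d : ℕ, Nat.gcd n (Fintype.card F - 1) ≤ d → d * (4 * n + 2) < gs (Fintype.card F) n → False :=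
    fun d h1 h2 => h.false_of_torus' hp e h1 hg0 ⟨x, hx⟩ hnd h2
  rcases Nat.lt_or_ge n 4 with hn4 | hn4
  · obtain rfl : n = 3 := by omega
    rcases Nat.lt_or_ge (Fintype.card F) 7 with h7 | h7
    · generalize hq : Fintype.card F = q at *
      interval_cases q
      · exact hn2 rfl rfl
      · -- `q = 3`
        have h1 : gs 3 3 = 13 := by decide
        have h2 : Nat.gcd 3 (3 - 1) = 1 := rfl
        obtain ⟨c, hc⟩ := hx
        rw [h2, mul_one] at hc
        have h4 : 13 ∣ orderOf (e.symm x) := by rw [MulEquiv.orderOf_eq, hc, h1]; exact dvd_mul_right _ _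
        obtain ⟨z, hz⟩ := exists_order_of_dvd h4
        refine h.false_of_order hp hp5 hz ?_ (by norm_num) (by norm_num)
        rw [← h1]; exact hnd
      · -- `q = 4`
        have hr2 : r = 2 := by
          rw [show (4 : ℕ) = 2 ^ 2 from rfl] at hrq
          exact (Nat.prime_dvd_prime_iff_eq hr Nat.prime_two).1 (hr.dvd_of_dvd_pow hrq)
        have h1 := Cfsg.Agent.S0243.result hq 3 (by norm_num)
        rw [← Nat.card_congr e.toEquiv] at h1
        have h2 : Nat.card K = 20160 := by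
          simp [Fin.prod_univ_three] at h1
          omega
        refine h.false_of_chk hp hp5 hr (M := 7) (by norm_num) (by norm_num) h2 (L := [7, 5]) ?_ (by decide +kernel)
        intro s hs
        simp only [List.mem_cons, List.not_mem_nil, or_false] at hs
        subst hr2
        rcases hs with rfl | rfl
        · exact ⟨by norm_num, by norm_num, by norm_num, by norm_num⟩
        · exact ⟨by norm_num, by norm_num, by norm_num, by norm_num⟩
      · exact key 1 (le_of_eq rfl) (by decide)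
      · exact key 1 (le_of_eq rfl) (by decide)
    · refine key 3 hgn ?_
      rw [gs_three]
      nlinarith
  · rcases Nat.lt_or_ge (Fintype.card F) 5 with h5 | h5
    · generalize hq : Fintype.card F = q at *
      interval_cases q
      · rcases Nat.lt_or_ge n 5 with h5 | h5
        · obtain rfl : n = 4 := by omega
          have h1 : gs 2 4 = 15 := by decide
          have h2 : Nat.gcd 4 (2 - 1) = 1 := rfl
          obtain ⟨c, hc⟩ := hx
          rw [h2, mul_one] at hc
          have h4 : 15 ∣ orderOf (e.symm x) := by rw [MulEquiv.orderOf_eq, hc, h1]; exact dvd_mul_right _ _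
          obtain ⟨z, hz⟩ := exists_order_of_dvd h4
          refine h.false_of_order hp hp5 hz ?_ (by norm_num) (by norm_num)
          rw [← h1]; exact hnd
        · exact key 1 (by omega) (gs_lt2 h5)
      · exact key 2 (by omega) (gs_lt3 hn4)
      · exact key 3 (by omega) (gs_lt4 hn4)
    · exact key n hgn (gs_lt h5 hn4)

/-- the adjoint module, `p ∣ (n, q - 1)` -/
theorem no_psl_of_reg_sq (hp : p.Prime) (hp5 : 5 ≤ p) (F : Type*) [Field F] [Fintype F] [CharP F r] {n : ℕ}
    (hn : 3 ≤ n) (hd : p ∣ Nat.gcd n (Fintype.card F - 1)) (e : K ≃* Matrix.ProjectiveSpecialLinearGroup (Fin n) F)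
    (h : Reg p r (n ^ 2) K) : False := by
  obtain ⟨hr, hrq⟩ : r.Prime ∧ r ∣ Fintype.card F := by
    obtain ⟨k, hr, hk⟩ := FiniteField.card F r
    exact ⟨hr, hk ▸ dvd_pow_self r k.pos.ne'⟩
  have hq2 : 1 < Fintype.card F := Fintype.one_lt_card
  obtain ⟨x, hx⟩ := exists_singer_psl (F := F) (n := n) (by omega)
  have hg0 : 0 < Nat.gcd n (Fintype.card F - 1) := Nat.gcd_pos_of_pos_left _ (by omega)
  have hgn : Nat.gcd n (Fintype.card F - 1) ≤ n := Nat.gcd_le_left _ (by omega)
  have hn5 : p ≤ n := Nat.le_of_dvd (by omega) (hd.trans (Nat.gcd_dvd_left _ _))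
  have hq5 : p ≤ Fintype.card F - 1 := Nat.le_of_dvd (by omega) (hd.trans (Nat.gcd_dvd_right _ _))
  exact h.false_of_torus' hp e hgn hg0 ⟨x, hx⟩ (gs_not_dvd hr hrq (by omega)) (gs_lt_sq (by omega) (by omega))

theorem mem_center_sl_iff {F : Type*} [Field F] {n : ℕ} (x : SpecialLinearGroup (Fin n) F) :
    x ∈ Subgroup.center (SpecialLinearGroup (Fin n) F) ↔ ∀ X : Matrix (Fin n) (Fin n) F,
      SpecialLinearGroup.coeMonoidHom x * X = X * SpecialLinearGroup.coeMonoidHom x := by
  constructor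
  · intro h X
    obtain ⟨c, -, hc⟩ := Matrix.SpecialLinearGroup.mem_center_iff.1 h
    rw [Matrix.SpecialLinearGroup.coeMonoidHom_apply, ← hc]
    exact (Matrix.scalar_commute c (Commute.all c) X)
  · intro h
    rw [Subgroup.mem_center_iff]
    intro g
    apply SpecialLinearGroup.coeMonoidHom_injective
    rw [map_mul, map_mul, h]

/-- **`PSL_n(q)`, `n ≥ 3`, in cross characteristic.** -/
theorem no_psl {A : Subgroup K} [IsSimpleGroup K] (hp : p.Prime) (hp5 : 5 ≤ p) (hrp : r ≠ p) (hK : LieHyp r K)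
    {F : Type} [Field F] [Fintype F] [CharP F r] {n : ℕ} (hn : 3 ≤ n) (hn2 : n = 3 → Fintype.card F ≠ 2)
    (e : K ≃* Matrix.ProjectiveSpecialLinearGroup (Fin n) F) (hA : Pr p A) : False := by
  obtain ⟨k, hr, hk⟩ := FiniteField.card F r
  have hc := Cfsg.Agent.H93.PslCharpoly.card_center (F := F) n (by omega)
  rw [Nat.card_eq_fintype_card (α := F)] at hc
  by_cases hd : p ∣ Nat.gcd n (Fintype.card F - 1)
  · refine no_psl_of_reg_sq hp hp5 F hn hd e (reg_adj hp hp5 hr hrp hK hA (Fintype.card_fin n)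
      SpecialLinearGroup.coeMonoidHom mem_center_sl_iff e)
  · exact no_psl_of_reg hp hp5 F hn hn2 e (reg_quot hp hp5 hr hrp hK hA (Fintype.card_fin n)
      SpecialLinearGroup.coeMonoidHom_injective le_rfl e
      (by rw [hc]; exact hd))

end Cfsg.Agent.H733.Tor
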