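import Cfsg.Agent.H733.Tor.Hyp
import Cfsg.Agent.H733.Tor.RowPSL
import Cfsg.Agent.H103.Tor.Iface
import Cfsg.Agent.H733.Tor.PSLThreeTwo

/-!
# S3235: the row `PSL_n(q)`, `n ≥ 3`, cross characteristic (helper733)
-/

set_option autoImplicit false

namespace Cfsg.Agent.H733.Tor

open Cfsg Cfsg.Agent.H103.Tor

/-- **`PSL_n(q)`, `n ≥ 3`, in cross characteristic.** -/
theorem row_pslCross {p : ℕ} (hp : p.Prime) (hp5 : 5 ≤ p) {K : Type*} [Group K] [Finite K] [IsSimpleGroup K]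
    (h : ∃ (F : Type) (_ : Field F) (_ : Fintype F) (n : ℕ), (p : F) ≠ 0 ∧ 3 ≤ n ∧
      Nonempty (K ≃* Matrix.ProjectiveSpecialLinearGroup (Fin n) F)) : Row p K := by
  obtain ⟨F, _, _, n, hpF, hn, ⟨e⟩⟩ := h
  intro A hA
  by_cases h32 : n = 3 ∧ Fintype.card F = 2
  · obtain ⟨rfl, h2⟩ := h32
    exact target_psl32 hp hp5 h2 e hA
  obtain ⟨r, ⟨hrc⟩⟩ := exists_char F
  have hr : r.Prime := by
    obtain ⟨k, hr, hk⟩ := FiniteField.card F r
    exact hr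
  have hrp : r ≠ p := by
    rintro rfl
    exact hpF (CharP.cast_eq_zero F r)
  exact (no_psl hp hp5 hrp (lieHyp hr (Or.inl ⟨F, inferInstance, inferInstance, hrc, n, by omega, by omega, ⟨e⟩⟩)) hn
    (fun h3 h2 => h32 ⟨h3, h2⟩) e hA).elim

end Cfsg.Agent.H733.Tor
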